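import Cfsg.Agent.H06.J0

/-! Lifting the hexad subgroup to the triple cover (namespace H15.JL): `up`, `push`, `l`. -/

set_option autoImplicit false

namespace H15.JL
open Subgroup Cfsg Cfsg.Agent.H06.J

universe u

theorem up {H X : Type*} [Group H] [Finite H] [Group X] {d : H} (ρ : H →* X) {K₀ Y₀ : Subgroup X} (d3 : d * (d * d) = 1)
    (dc : ∀ g, g * d = d * g) (dd : d ∈ commutator H) (hs : Function.Surjective ρ) (hk : ∀ m, ρ m = 1 ↔ m ∈ zpowers d)
    (h : Hx 1 K₀ Y₀) (hi : K₀.index = 77) : ∃ K Y : Subgroup H, Hx d K Y ∧ K.index = 77 ∧ d ∈ ⁅K, K⁆ := by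
  have kc : ∀ c, ρ c = 1 → c ^ 3 = 1 ∧ ∀ g, g * c = c * g := fun c e => by
    obtain ⟨n, rfl⟩ := (hk c).1 e
    refine ⟨?_, fun g => ((show Commute g d from dc g).zpow_right n).eq⟩
    show (d ^ n) ^ 3 = 1
    rw [← zpow_natCast, ← zpow_mul, mul_comm, zpow_mul, zpow_natCast, show d ^ 3 = 1 by rw [← d3, pow_three], one_zpow]
  have k1 : ∀ c, ρ c = 1 → c * c = 1 → c = 1 := fun c e e2 => by rw [← (kc c e).1, pow_three, e2, mul_one]
  have iv : ∀ {g : H}, g * g = 1 → g⁻¹ = g := fun e => inv_eq_of_mul_eq_one_right e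
  let Y : Subgroup H :=
    { carrier := {g | ρ g ∈ Y₀ ∧ g * g = 1}
      one_mem' := ⟨by simp, by simp⟩
      inv_mem' := fun {g} e => by rw [iv e.2]; exact e
      mul_mem' := fun {g k} a b => ⟨by rw [map_mul]; exact mul_mem a.1 b.1, by
        have e : ρ (g * k * (g * k)) = 1 := by rw [map_mul]; exact h.Y2 _ (by rw [map_mul]; exact mul_mem a.1 b.1)
        refine k1 _ e ?_
        calc _ = g * k * (g * k) * g * (k * (g * k)) := by group
          _ = g * g * k * g * (k * k) * (g * k) := by rw [← (kc _ e).2 g]; group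
          _ = 1 := by rw [a.2, b.2, one_mul, mul_one, mul_assoc, ← mul_assoc g, a.2, one_mul, b.2]⟩ }
  have inj : ∀ y ∈ Y, ∀ y' ∈ Y, ρ y = ρ y' → y = y' := fun y a y' b e =>
    inv_mul_eq_one.1 (k1 _ (by rw [map_mul, map_inv, e, inv_mul_cancel]) (mul_mem (inv_mem a) b : _ ∈ Y).2)
  have sur : ∀ y ∈ Y₀, ∃ g ∈ Y, ρ g = y := fun y hy => by
    obtain ⟨g, rfl⟩ := hs y
    have e : ρ (g ^ 3) = ρ g := by rw [map_pow, pow_three, h.Y2 _ hy, mul_one]
    exact ⟨g ^ 3, ⟨e ▸ hy, by rw [← pow_add, show 3 + 3 = 2 * 3 from rfl, pow_mul, (kc _ (by rw [map_pow, pow_two, h.Y2 _ hy])).1]⟩, e⟩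
  have := Finite.of_surjective ρ hs
  have d1 : ρ d = 1 := (hk d).2 (mem_zpowers d)
  have cm : ∀ J : Subgroup H, d ∈ J → (J.map ρ).comap ρ = J := fun J hd =>
    comap_map_eq_self fun m e => zpowers_le.2 hd ((hk m).1 e)
  have YJ : ∀ J : Subgroup H, Y ≤ J → Y₀ ≤ J.map ρ := fun J l y hy => let ⟨g, a, e⟩ := sur y hy; ⟨g, l a, e⟩
  have nY : ∀ k ∈ K₀.comap ρ, ∀ y ∈ Y, k * y * k⁻¹ ∈ Y := fun k a y b =>
    ⟨by rw [map_mul, map_mul, map_inv]; exact h.nY _ a _ b.1, by rw [conj_mul, b.2]; simp⟩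
  have ix : (K₀.comap ρ).index = 77 := by rw [index_comap_of_surjective _ hs, hi]
  refine ⟨K₀.comap ρ, Y, ⟨show ρ d ∈ K₀ from d1 ▸ one_mem _, fun g a => h.YK a.1, ?_, fun y a => a.2, nY, fun y a y' b n n' => ?_,
    fun J l yl dJ r => ?_, fun N l yl dN nn => ?_, fun E l e2 => ?_⟩, ix, ?_⟩
  · rw [← h.cY]
    exact Nat.card_congr (Equiv.ofBijective (fun y : Y => (⟨ρ y, y.2.1⟩ : Y₀)) ⟨fun a b e => Subtype.ext (inj _ a.2 _ b.2 (congrArg Subtype.val e)),
      fun y => let ⟨g, a, e⟩ := sur y y.2; ⟨⟨g, a⟩, Subtype.ext e⟩⟩)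
  · obtain ⟨k, a', e⟩ := h.tr _ a.1 _ b.1 (fun e => n (k1 _ e a.2)) fun e => n' (k1 _ e b.2)
    obtain ⟨k, rfl⟩ := hs k
    exact ⟨k, a', inj _ (nY k a' y a) _ b (by rw [map_mul, map_mul, map_inv, e])⟩
  · rw [← cm J dJ, relIndex_comap, map_comap_eq_self_of_surjective hs] at r
    exact (comap_mono (h.s1 _ (map_le_iff_le_comap.2 l) (YJ J yl) (one_mem _) r)).trans (cm J dJ).le
  · refine (h.s2 _ (map_le_iff_le_comap.2 l) (YJ N yl) (one_mem _) fun k a n b => ?_).imp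
      (fun r => (comap_mono r).trans (cm N dN).le) fun r g a b => ⟨r _ (mem_map_of_mem _ a) (by rw [← map_mul, b, map_one]), b⟩
    obtain ⟨k, rfl⟩ := hs k
    obtain ⟨n, b, rfl⟩ := b
    exact ⟨_, nn k a n b, by rw [map_mul, map_mul, map_inv]⟩
  · refine (Nat.card_le_card_of_injective (fun x : E => (⟨ρ x, mem_map_of_mem _ x.2⟩ : E.map ρ)) ?_).trans
      ((h.s3 _ (map_le_iff_le_comap.2 l) ?_).trans (Nat.mul_le_mul_left _ (Nat.card_le_card_of_surjective
        (fun x : (E ⊓ Y : Subgroup H) => (⟨ρ x, mem_map_of_mem _ x.2.1, x.2.2.1⟩ : (E.map ρ ⊓ Y₀ : Subgroup X))) ?_)))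
    · exact fun a b e => Subtype.ext (inv_mul_eq_one.1 (k1 _ (by
        rw [map_mul, map_inv, show ρ a = ρ b from congrArg Subtype.val e, inv_mul_cancel]) (e2 _ (mul_mem (inv_mem a.2) b.2))))
    · rintro _ ⟨g, a, rfl⟩; rw [← map_mul, e2 g a, map_one]
    · rintro ⟨_, ⟨g, a, rfl⟩, b⟩; exact ⟨⟨g, a, b, e2 g a⟩, rfl⟩
  · have t := MonoidHom.transfer_eq_pow (Abelianization.of (G := K₀.comap ρ)) d fun k g _ => by
      rw [((show Commute g⁻¹ d from dc _).pow_right k).eq, inv_mul_cancel_right]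
    rw [MonoidHom.mem_ker.1 (Abelianization.commutator_subset_ker _ dd), eq_comm, ← MonoidHom.mem_ker, Abelianization.ker_of] at t
    have := mem_map_of_mem (K₀.comap ρ).subtype t
    rw [map_subtype_commutator] at this
    have := pow_mem this 2
    rwa [coe_subtype, ← pow_mul, ix, show 77 * 2 = 3 * 51 + 1 from rfl, pow_succ, pow_mul, (kc d d1).1, one_pow, one_mul] at this

theorem push {H Γ : Type*} [Group H] [Group Γ] {ι : H →* Γ} (i : Function.Injective ι) {d : H} {K Y : Subgroup H} (h : Hx d K Y) :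
    Hx (ι d) (K.map ι) (Y.map ι) where
  dK := mem_map_of_mem _ h.dK
  YK := map_mono h.YK
  cY := (card_map_of_injective i).trans h.cY
  Y2 := by rintro _ ⟨y, a, rfl⟩; rw [← map_mul, h.Y2 y a, map_one]
  nY := by rintro _ ⟨k, a, rfl⟩ _ ⟨y, b, rfl⟩; exact ⟨_, h.nY k a y b, by rw [map_mul, map_mul, map_inv]⟩
  tr := by
    rintro _ ⟨y, a, rfl⟩ _ ⟨y', b, rfl⟩ n n'
    obtain ⟨k, c, e⟩ := h.tr y a y' b (fun e => n (e ▸ map_one ι)) fun e => n' (e ▸ map_one ι)
    exact ⟨_, mem_map_of_mem _ c, by rw [← e, map_mul, map_mul, map_inv]⟩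
  s1 := fun J l y dJ r => map_le_iff_le_comap.2 (h.s1 _ ((comap_mono l).trans (comap_map_eq_self_of_injective i K).le)
    (map_le_iff_le_comap.1 y) dJ (by rwa [relIndex_comap]))
  s2 := fun N l y dN nn => (h.s2 (N.comap ι) ((comap_mono l).trans (comap_map_eq_self_of_injective i K).le) (map_le_iff_le_comap.1 y) dN
    fun k a n b => by rw [mem_comap, map_mul, map_mul, map_inv]; exact nn _ (mem_map_of_mem _ a) _ b).imp map_le_iff_le_comap.2
      fun r g a b => by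
        obtain ⟨g, -, rfl⟩ := l a
        exact mem_map_of_mem _ (r g a (i (by rw [map_mul, b, map_one])))
  s3 := fun E l e2 => by
    have e : (E.comap ι).map ι = E := map_comap_eq_self (l.trans (map_le_range _ _))
    have := h.s3 (E.comap ι) ((comap_mono l).trans (comap_map_eq_self_of_injective i K).le) fun g a => i (by rw [map_mul, e2 _ a, map_one])
    rwa [← card_map_of_injective i, ← card_map_of_injective (K := _ ⊓ _) i, map_inf _ _ _ i, e] at this

theorem l : LStmt.{u} := by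
  intro Γ _ _ d M ρ K₀ Y₀ d3 dM Md dd hs hk h hi
  obtain ⟨K, Y, a, b, c⟩ := up (d := (⟨d, dM⟩ : M)) ρ (Subtype.ext d3) (fun g => Subtype.ext (Md g g.2)) (by
      rw [← map_subtype_commutator] at dd
      obtain ⟨x, a, e⟩ := dd
      exact (Subtype.ext e : x = ⟨d, dM⟩) ▸ a) hs (fun m => (hk m).trans ⟨fun ⟨n, e⟩ => ⟨n, Subtype.ext e⟩,
        fun ⟨n, e⟩ => ⟨n, congrArg Subtype.val e⟩⟩) h hi
  refine ⟨_, _, push M.subtype_injective a, map_subtype_le _, ?_, by rw [← map_commutator]; exact mem_map_of_mem _ c⟩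
  rw [relIndex, subgroupOf, comap_map_eq_self_of_injective M.subtype_injective, b]

end H15.JL
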