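import Cfsg.Agent.H23.K0
import Cfsg.Agent.H15.JL

/-! Lifting the hexad subgroup (with its orbits) to the triple cover (namespace H15.KL): `up2`, `push2`, `l2`. -/

set_option autoImplicit false

namespace H15.KL
open Subgroup Cfsg BG Cfsg.Agent.H06.J Cfsg.Agent.H23.K

universe u

theorem up2 {H X : Type*} [Group H] [Finite H] [Group X] {d : H} (ρ : H →* X) {K₀ Y₀ : Subgroup X} (d3 : d * (d * d) = 1)
    (dc : ∀ g, g * d = d * g) (dd : d ∈ commutator H) (hs : Function.Surjective ρ) (hk : ∀ m, ρ m = 1 ↔ m ∈ zpowers d)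
    (h' : Hk 1 ⊤ K₀ Y₀) : ∃ K Y : Subgroup H, Hk d ⊤ K Y ∧ d ∈ ⁅K, K⁆ := by
  have h := h'.hx
  have hi : K₀.index = 77 := by rw [← relIndex_top_right, h'.iK]
  have kc : ∀ c, ρ c = 1 → c ^ 3 = 1 ∧ ∀ g, g * c = c * g := fun c e => by
    obtain ⟨n, rfl⟩ := (hk c).1 e
    refine ⟨?_, fun g => ((show Commute g d from dc g).zpow_right n).eq⟩
    show (d ^ n) ^ 3 = 1
    rw [← zpow_natCast, ← zpow_mul, mul_comm, zpow_mul, zpow_natCast, show d ^ 3 = 1 by rw [← d3, pow_three], one_zpow]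
  have k1 : ∀ c, ρ c = 1 → c * c = 1 → c = 1 := fun c e e2 => by rw [← (kc c e).1, pow_three, e2, mul_one]
  have iv : ∀ {g : H}, g * g = 1 → g⁻¹ = g := fun e => inv_eq_of_mul_eq_one_right e
  let Y : Subgroup H :=
    { carrier := {g | ρ g ∈ Y₀ ∧ g * g = 1}
      one_mem' := ⟨by simp, by simp⟩
      inv_mem' := fun {g} e => by rw [iv e.2]; exact e
      mul_mem' := fun {g k} a b => ⟨by rw [map_mul]; exact mul_mem a.1 b.1, by
        have e : ρ (g * k * (g * k)) = 1 := by rw [map_mul]; exact h.Y2 _ (by rw [map_mul]; exact mul_mem a.1 b.1)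
        refine k1 _ e ?_
        calc _ = g * k * (g * k) * g * (k * (g * k)) := by group
          _ = g * g * k * g * (k * k) * (g * k) := by rw [← (kc _ e).2 g]; group
          _ = 1 := by rw [a.2, b.2, one_mul, mul_one, mul_assoc, ← mul_assoc g, a.2, one_mul, b.2]⟩ }
  have inj : ∀ y ∈ Y, ∀ y' ∈ Y, ρ y = ρ y' → y = y' := fun y a y' b e =>
    inv_mul_eq_one.1 (k1 _ (by rw [map_mul, map_inv, e, inv_mul_cancel]) (mul_mem (inv_mem a) b : _ ∈ Y).2)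
  have sur : ∀ y ∈ Y₀, ∃ g ∈ Y, ρ g = y := fun y hy => by
    obtain ⟨g, rfl⟩ := hs y
    have e : ρ (g ^ 3) = ρ g := by rw [map_pow, pow_three, h.Y2 _ hy, mul_one]
    exact ⟨g ^ 3, ⟨e ▸ hy, by rw [← pow_add, show 3 + 3 = 2 * 3 from rfl, pow_mul, (kc _ (by rw [map_pow, pow_two, h.Y2 _ hy])).1]⟩, e⟩
  have := Finite.of_surjective ρ hs
  have d1 : ρ d = 1 := (hk d).2 (mem_zpowers d)
  have cm : ∀ J : Subgroup H, d ∈ J → (J.map ρ).comap ρ = J := fun J hd =>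
    comap_map_eq_self fun m e => zpowers_le.2 hd ((hk m).1 e)
  have YJ : ∀ J : Subgroup H, Y ≤ J → Y₀ ≤ J.map ρ := fun J l y hy => let ⟨g, a, e⟩ := sur y hy; ⟨g, l a, e⟩
  have nY : ∀ k ∈ K₀.comap ρ, ∀ y ∈ Y, k * y * k⁻¹ ∈ Y := fun k a y b =>
    ⟨by rw [map_mul, map_mul, map_inv]; exact h.nY _ a _ b.1, by rw [conj_mul, b.2]; simp⟩
  have ix : (K₀.comap ρ).index = 77 := by rw [index_comap_of_surjective _ hs, hi]
  have key : ∀ g, (K₀.comap ρ ⊓ cj g (K₀.comap ρ)).relIndex (K₀.comap ρ) = (K₀ ⊓ cj (ρ g) K₀).relIndex K₀ := fun g => by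
    rw [show K₀.comap ρ ⊓ cj g (K₀.comap ρ) = (K₀ ⊓ cj (ρ g) K₀).comap ρ from Subgroup.ext fun x => by
      simp only [mem_inf, mem_comap, mem_cj, map_mul, map_inv], relIndex_comap, map_comap_eq_self_of_surjective hs]
  refine ⟨K₀.comap ρ, Y, ⟨⟨show ρ d ∈ K₀ from d1 ▸ one_mem _, fun g a => h.YK a.1, ?_, fun y a => a.2, nY, fun y a y' b n n' => ?_,
    fun J l yl dJ r => ?_, fun N l yl dN nn => ?_, fun E l e2 => ?_⟩, le_top, by rw [relIndex_top_right, ix],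
    fun x _ e => ?_, ?_, ?_, fun J l _ => ?_, ?_⟩, ?_⟩
  · rw [← h.cY]
    exact Nat.card_congr (Equiv.ofBijective (fun y : Y => (⟨ρ y, y.2.1⟩ : Y₀)) ⟨fun a b e => Subtype.ext (inj _ a.2 _ b.2 (congrArg Subtype.val e)),
      fun y => let ⟨g, a, e⟩ := sur y y.2; ⟨⟨g, a⟩, Subtype.ext e⟩⟩)
  · obtain ⟨k, a', e⟩ := h.tr _ a.1 _ b.1 (fun e => n (k1 _ e a.2)) fun e => n' (k1 _ e b.2)
    obtain ⟨k, rfl⟩ := hs k
    exact ⟨k, a', inj _ (nY k a' y a) _ b (by rw [map_mul, map_mul, map_inv, e])⟩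
  · rw [← cm J dJ, relIndex_comap, map_comap_eq_self_of_surjective hs] at r
    exact (comap_mono (h.s1 _ (map_le_iff_le_comap.2 l) (YJ J yl) (one_mem _) r)).trans (cm J dJ).le
  · refine (h.s2 _ (map_le_iff_le_comap.2 l) (YJ N yl) (one_mem _) fun k a n b => ?_).imp
      (fun r => (comap_mono r).trans (cm N dN).le) fun r g a b => ⟨r _ (mem_map_of_mem _ a) (by rw [← map_mul, b, map_one]), b⟩
    obtain ⟨k, rfl⟩ := hs k
    obtain ⟨n, b, rfl⟩ := b
    exact ⟨_, nn k a n b, by rw [map_mul, map_mul, map_inv]⟩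
  · refine (Nat.card_le_card_of_injective (fun x : E => (⟨ρ x, mem_map_of_mem _ x.2⟩ : E.map ρ)) ?_).trans
      ((h.s3 _ (map_le_iff_le_comap.2 l) ?_).trans (Nat.mul_le_mul_left _ (Nat.card_le_card_of_surjective
        (fun x : (E ⊓ Y : Subgroup H) => (⟨ρ x, mem_map_of_mem _ x.2.1, x.2.2.1⟩ : (E.map ρ ⊓ Y₀ : Subgroup X))) ?_)))
    · exact fun a b e => Subtype.ext (inv_mul_eq_one.1 (k1 _ (by
        rw [map_mul, map_inv, show ρ a = ρ b from congrArg Subtype.val e, inv_mul_cancel]) (e2 _ (mul_mem (inv_mem a.2) b.2))))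
    · rintro _ ⟨g, a, rfl⟩; rw [← map_mul, e2 g a, map_one]
    · rintro ⟨_, ⟨g, a, rfl⟩, b⟩; exact ⟨⟨g, a, b, e2 g a⟩, rfl⟩
  · obtain ⟨g, -, a⟩ := h'.oc (ρ x) trivial (by rw [← map_mul, e, map_one])
    obtain ⟨g, rfl⟩ := hs g
    exact ⟨g, trivial, by rw [map_mul, map_mul, map_inv]; exact a, by rw [conj_mul, e]; simp⟩
  · obtain ⟨g, -, y, a, n⟩ := h'.nY
    obtain ⟨g, rfl⟩ := hs g
    obtain ⟨y, b, rfl⟩ := sur y a
    exact ⟨g, trivial, y, b, fun c => n (by have := c.1; rwa [map_mul, map_mul, map_inv] at this)⟩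
  · obtain ⟨g0, -, a, b⟩ := h'.orb
    obtain ⟨g0, rfl⟩ := hs g0
    refine ⟨g0, trivial, (key g0).trans a, fun g _ => (b (ρ g) trivial).imp id (Or.imp ?_ (key g).trans)⟩
    rintro ⟨k, c, k', c', e⟩
    obtain ⟨k, rfl⟩ := hs k
    refine ⟨k, c, (k * g0)⁻¹ * g, ?_, by group⟩
    rw [mem_comap, map_mul, map_inv, map_mul, e, inv_mul_cancel_left]; exact c'
  · have dJ : d ∈ J := l (show ρ d ∈ K₀ from d1 ▸ one_mem _)
    refine (h'.mx (J.map ρ) ((map_comap_eq_self_of_surjective hs K₀).ge.trans (map_mono l)) le_top).imp (fun e => ?_) fun e => ?_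
    · rw [← e, cm J dJ]
    · rw [← cm J dJ, e, comap_top]
  · obtain ⟨φ, a, b⟩ := h'.ph
    refine ⟨φ.comp (ρ.subgroupComap K₀), a.comp (ρ.subgroupComap_surjective_of_surjective K₀ hs), fun k => (b _).trans ⟨?_, ?_⟩⟩
    · rintro ⟨y, c, i, e⟩
      obtain ⟨y, c', rfl⟩ := sur y c
      have e : ρ k = ρ y * 1 ^ i := e
      obtain ⟨n, e'⟩ := mem_powers_iff_mem_zpowers.2 ((hk (y⁻¹ * k)).1 (by rw [map_mul, map_inv, e, one_pow, mul_one, inv_mul_cancel]))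
      exact ⟨y, c', n, by rw [show d ^ n = _ from e', mul_inv_cancel_left]⟩
    · rintro ⟨y, c, i, e⟩
      exact ⟨ρ y, c.1, i, show ρ k = _ by rw [e, map_mul, map_pow, d1]⟩
  · have t := MonoidHom.transfer_eq_pow (Abelianization.of (G := K₀.comap ρ)) d fun k g _ => by
      rw [((show Commute g⁻¹ d from dc _).pow_right k).eq, inv_mul_cancel_right]
    rw [MonoidHom.mem_ker.1 (Abelianization.commutator_subset_ker _ dd), eq_comm, ← MonoidHom.mem_ker, Abelianization.ker_of] at t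
    have := mem_map_of_mem (K₀.comap ρ).subtype t
    rw [map_subtype_commutator] at this
    have := pow_mem this 2
    rwa [coe_subtype, ← pow_mul, ix, show 77 * 2 = 3 * 51 + 1 from rfl, pow_succ, pow_mul, (kc d d1).1, one_pow, one_mul] at this

theorem push2 {Γ : Type*} [Group Γ] {M : Subgroup Γ} {d : M} {K Y : Subgroup M} (h : Hk d ⊤ K Y) :
    Hk (d : Γ) M (K.map M.subtype) (Y.map M.subtype) := by
  have i := M.subtype_injective
  have mm : ∀ (J : Subgroup M) (x : M), (x : Γ) ∈ J.map M.subtype ↔ x ∈ J := fun J x => mem_map_iff_mem i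
  have key : ∀ g : M, (K.map M.subtype ⊓ cj (g : Γ) (K.map M.subtype)).relIndex (K.map M.subtype) = (K ⊓ cj g K).relIndex K := fun g => by
    rw [← relIndex_comap]
    congr 1
    ext x
    rw [mem_comap, mem_inf, mem_inf, mem_cj, mem_cj, ← mm K x, ← mm K (g⁻¹ * x * g)]; rfl
  refine ⟨H15.JL.push i h.hx, map_subtype_le _, ?_, fun x a e => ?_, ?_, ?_, fun J l l' => ?_, ?_⟩
  · rw [relIndex, subgroupOf, comap_map_eq_self_of_injective i, ← relIndex_top_right, h.iK]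
  · obtain ⟨g, -, b⟩ := h.oc ⟨x, a⟩ trivial (Subtype.ext e)
    exact ⟨g, g.2, (mm Y _).2 b⟩
  · obtain ⟨g, -, y, a, n⟩ := h.nY
    exact ⟨g, g.2, y, (mm Y y).2 a, fun c => n ((mm Y _).1 c)⟩
  · obtain ⟨g0, -, a, b⟩ := h.orb
    refine ⟨g0, g0.2, (key g0).trans a, fun g c => (b ⟨g, c⟩ trivial).imp (mm K _).2 (Or.imp ?_ (key ⟨g, c⟩).trans)⟩
    rintro ⟨k, c, k', c', e⟩
    exact ⟨k, (mm K k).2 c, k', (mm K k').2 c', congrArg Subtype.val e⟩
  · have e : (J.subgroupOf M).map M.subtype = J := map_subgroupOf_eq_of_le l'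
    refine (h.mx (J.subgroupOf M) (map_le_iff_le_comap.1 l) le_top).imp (fun r => ?_) fun r => ?_
    · rw [← e, r]
    · rw [← e, r, ← MonoidHom.range_eq_map, range_subtype]
  · obtain ⟨φ, a, b⟩ := h.ph
    refine ⟨φ.comp (K.equivMapOfInjective _ i).symm.toMonoidHom, a.comp (K.equivMapOfInjective _ i).symm.surjective, fun k => ?_⟩
    obtain ⟨k, rfl⟩ := (K.equivMapOfInjective _ i).surjective k
    refine Iff.trans (by simp) ((b k).trans ⟨?_, ?_⟩)
    · rintro ⟨y, c, n, e⟩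
      exact ⟨y, (mm Y y).2 c, n, congrArg Subtype.val e⟩
    · rintro ⟨_, ⟨y, c, rfl⟩, n, e⟩
      exact ⟨y, c, n, Subtype.ext e⟩

theorem l2 : L2Stmt.{u} := by
  intro Γ _ _ d M ρ K₀ Y₀ d3 dM Md dd hs hk h
  obtain ⟨K, Y, a, c⟩ := up2 (d := (⟨d, dM⟩ : M)) ρ (Subtype.ext d3) (fun g => Subtype.ext (Md g g.2)) (by
      rw [← map_subtype_commutator] at dd
      obtain ⟨x, a, e⟩ := dd
      exact (Subtype.ext e : x = ⟨d, dM⟩) ▸ a) hs (fun m => (hk m).trans ⟨fun ⟨n, e⟩ => ⟨n, Subtype.ext e⟩,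
        fun ⟨n, e⟩ => ⟨n, congrArg Subtype.val e⟩⟩) h
  exact ⟨_, _, push2 a, by rw [← map_commutator]; exact mem_map_of_mem _ c⟩

end H15.KL
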