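import Mathlib
import Cfsg.Agent.S1589
import Cfsg.Agent.S5599
import Cfsg.Agent.H14.OutM
import Cfsg.Agent.H14.MSimple

/-! Subgroups of index 276 of `M₂₄` are isomorphic to `Aut M₂₂` (namespace H15.YA): `a`. -/

set_option autoImplicit false

namespace H15.YA
open Subgroup Cfsg MulAction
open scoped Pointwise

theorem ci : Function.Injective (MulAut.conj : Spor.M22 →* MulAut Spor.M22) := by
  have := H14.simple_M22
  refine (MonoidHom.ker_eq_bot_iff _).1 ((MonoidHom.normal_ker _).eq_bot_or_eq_top.resolve_right fun t => ?_)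
  obtain ⟨x, ox⟩ := exists_prime_orderOf_dvd_card' (G := Spor.M22) 3 (by rw [H14.card_M22]; norm_num)
  have nx : (zpowers x).Normal := ⟨fun a i g => by
    rw [show g * a * g⁻¹ = a from DFunLike.congr_fun (show MulAut.conj g = 1 from t.ge (mem_top g)) a]; exact i⟩
  have cx := (Nat.card_zpowers x).trans ox
  rcases nx.eq_bot_or_eq_top with r | r <;> rw [r] at cx
  · simp at cx
  · rw [card_top, H14.card_M22] at cx; omega

theorem cA : Nat.card (MulAut Spor.M22) = 887040 := by
  have cI : Nat.card (Inn Spor.M22) = 443520 := (Nat.card_congr (MonoidHom.ofInjective ci).toEquiv).symm.trans H14.card_M22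
  rw [← (Inn _).card_mul_index, cI, show (Inn Spor.M22).index = 2 from H14.out_o22]

theorem cs (x : stabilizer M24 ({none, some 0} : Finset GolayPt)) :
    x.1.1 ∈ Spor.M22 ∨ (x.1.1 none = some 0 ∧ x.1.1 (some 0) = none) := by
  have k : ∀ p, x.1.1 p ∈ ({none, some 0} : Finset GolayPt) ↔ p ∈ ({none, some 0} : Finset GolayPt) :=
    H14.mem_iff_of_smul_eq (g := x.1.1) x.2
  have a := (k none).2 (by simp)
  have b := (k (some 0)).2 (by simp)
  have n : x.1.1 none ≠ x.1.1 (some 0) := fun e => by simpa using x.1.1.injective e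
  simp only [Finset.mem_insert, Finset.mem_singleton] at a b
  rcases a with a | a <;> rcases b with b | b
  exacts [absurd (a.trans b.symm) n, .inl ⟨⟨x.1.2, a⟩, b⟩, .inr ⟨a, b⟩, absurd (a.trans b.symm) n]

theorem a (H : Subgroup M24) (h : H.index = 276) : Nonempty (H ≃* MulAut Spor.M22) := by
  have c := H.card_mul_index
  rw [h, H14.card_M24] at c
  obtain ⟨s, s2, rfl⟩ := Cfsg.Agent.S1589.result.2.1 H h
  obtain ⟨p, q, n, rfl⟩ := Finset.card_eq_two.1 s2
  have := H14.M24_five_trans
  have t2 : IsMultiplyPretransitive M24 GolayPt 2 := isMultiplyPretransitive_of_le' (n := 5) (by norm_num) (by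
    rw [ENat.card_eq_coe_fintype_card, H14.card_pt]; norm_num)
  obtain ⟨g, g1, g2⟩ := is_two_pretransitive_iff.1 t2 n (show (none : GolayPt) ≠ some 0 by simp)
  have e := stabilizerEquivStabilizer (G := M24) (g := g) (a := ({p, q} : Finset GolayPt)) (b := ({none, some 0} : Finset GolayPt))
    (by rw [Finset.smul_finset_insert, Finset.smul_finset_singleton, g1, g2])
  let ι : stabilizer M24 ({none, some 0} : Finset GolayPt) →* normalizer (Spor.M22 : Set (Equiv.Perm GolayPt)) :=
    (M24.subtype.comp (Subgroup.subtype _)).codRestrict _ fun x => (cs x).elim (fun m => le_normalizer m) fun m =>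
      mem_normalizer_fintype (Cfsg.Agent.S5599.result _ x.1.2 m.1 m.2).2.1
  have i : Function.Injective (Spor.M22.normalizerMonoidHom.comp ι) := (injective_iff_map_eq_one _).2 fun x k => by
    have k' : ∀ y ∈ Spor.M22, x.1.1 * y * x.1.1⁻¹ = y := fun y m => by
      have := congrArg Subtype.val (DFunLike.congr_fun k ⟨y, m⟩)
      exact this
    rcases cs x with m | m
    · have : (⟨_, m⟩ : Spor.M22) = 1 := ci (by rw [map_one]; exact MulEquiv.ext fun y => Subtype.ext (k' y y.2))
      exact Subtype.ext (Subtype.ext (show x.1.1 = 1 from congrArg (Subtype.val : Spor.M22 → _) this))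
    · exact absurd ⟨1, one_mem _, fun y b => by rw [k' y b]; simp⟩ (Cfsg.Agent.S5599.result _ x.1.2 m.1 m.2).2.2
  exact ⟨e.trans (MulEquiv.ofBijective _ ((Nat.bijective_iff_injective_and_card _).2
    ⟨i, by rw [cA, ← Nat.card_congr e.toEquiv]; omega⟩))⟩

theorem au : Nonempty (↥(Cfsg.M24 ⊓ MulAction.stabilizer (Equiv.Perm Cfsg.GolayPt)
    ({none, some 0} : Set Cfsg.GolayPt)) ≃* MulAut ↥Cfsg.Spor.M22) := by
  have c := (stabilizer M24 ({none, some 0} : Finset GolayPt)).card_mul_index
  have c' : Nat.card (stabilizer M24 ({none, some 0} : Finset GolayPt)) = 887040 := by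
    rw [show ({none, some 0} : Finset GolayPt) = H13.bPair by decide +kernel]; exact H13.card_stPair
  rw [c', H14.card_M24] at c
  obtain ⟨e⟩ := a (stabilizer M24 ({none, some 0} : Finset GolayPt)) (by omega)
  have k : ∀ x : Equiv.Perm GolayPt, x • ({none, some 0} : Finset GolayPt) = {none, some 0} ↔
      x • ({none, some 0} : Set GolayPt) = {none, some 0} := fun x => by
    rw [← Finset.coe_inj, Finset.coe_smul_finset]; simp
  exact ⟨MulEquiv.trans
    { toFun := fun x => ⟨⟨x.1, x.2.1⟩, (k x.1).2 x.2.2⟩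
      invFun := fun y => ⟨y.1.1, y.1.2, (k y.1.1).1 y.2⟩
      left_inv := fun _ => rfl
      right_inv := fun _ => rfl
      map_mul' := fun _ _ => rfl } e⟩

end H15.YA
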