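import Cfsg.Agent.L.Jf0
import Cfsg.Agent.S1554

/-! A Frobenius group of order 20 in `M₂₄` (namespace H15.S5M20): `m20`. -/

set_option autoImplicit false

namespace H15.S5M20
open Subgroup Cfsg Equiv

theorem m20 : L.Jf.M20Stmt := by
  have : Fact (Nat.Prime 5) := ⟨by norm_num⟩
  have : Fact (Nat.Prime 2) := ⟨by norm_num⟩
  obtain ⟨p, hp⟩ : ∃ p, p ∉ H14.toSet 0x149f := by decide +kernel
  obtain ⟨e⟩ := (Cfsg.Agent.S1554.result _ H14.oct0_mem p hp).2.2
  let φ : alternatingGroup (Fin 8) →* M24 := (inclusion (inf_le_left.trans inf_le_left)).comp e.symm.toMonoidHom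
  have i : Function.Injective φ := (inclusion_injective (inf_le_left.trans inf_le_left)).comp e.symm.injective
  let x : alternatingGroup (Fin 8) := ⟨swap 0 4 * swap 0 3 * swap 0 2 * swap 0 1, by rw [Perm.mem_alternatingGroup]; decide +kernel⟩
  let y : alternatingGroup (Fin 8) := ⟨swap 1 3 * swap 1 4 * swap 1 2 * swap 5 6, by rw [Perm.mem_alternatingGroup]; decide +kernel⟩
  refine ⟨φ x, φ y, ?_, ?_, ?_⟩
  · rw [orderOf_injective φ i]
    exact orderOf_eq_prime (Subtype.ext (by decide +kernel)) fun h => absurd (congrArg Subtype.val h) (by decide +kernel)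
  · rw [orderOf_injective φ i]
    exact orderOf_eq_prime_pow (p := 2) (n := 1) (fun h => absurd (congrArg Subtype.val h) (by decide +kernel)) (Subtype.ext (by decide +kernel))
  · rw [← map_inv, ← map_mul, ← map_mul, ← map_pow]
    exact congrArg φ (Subtype.ext (by decide +kernel))

end H15.S5M20
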