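import Cfsg.Agent.L.Js0
import Cfsg.Agent.H15.YA
import Cfsg.Agent.H19.SelfM

/-! Centralisers of elements of order seven in `Aut M₂₂` (namespace H15.S7M): `m7`. -/

set_option autoImplicit false

namespace H15.S7M
open Subgroup Cfsg BG

theorem m7 : L.Js.M7Stmt := by
  intro α o
  have i2 : (Inn Spor.M22).index = 2 := H14.out_o22
  have h : α ∈ Inn Spor.M22 := by
    have := pow_mem (i2 ▸ (Inn Spor.M22).pow_index_mem α) 4
    rwa [← pow_mul, show 2 * 4 = 7 + 1 from rfl, pow_succ, ← o, pow_orderOf_eq_one, one_mul] at this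
  obtain ⟨x, rfl⟩ := h
  have c := H19.selfC_M22 (.inr (.inl rfl)) x ((orderOf_injective _ H15.YA.ci x).symm.trans o)
  have e : Inn Spor.M22 ⊓ C_[MulAut.conj x] = (C_[x]).map MulAut.conj := by
    ext g
    constructor
    · rintro ⟨⟨y, rfl⟩, b⟩
      exact ⟨y, mem_cent1.2 (H15.YA.ci (by rw [map_mul, map_mul]; exact mem_cent1.1 b)), rfl⟩
    · rintro ⟨y, b, rfl⟩
      exact ⟨⟨y, rfl⟩, mem_cent1.2 (by rw [← map_mul, ← map_mul, mem_cent1.1 b])⟩
  have k := ((Inn Spor.M22).subgroupOf C_[MulAut.conj x]).card_mul_index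
  rw [← inf_subgroupOf_right, Nat.card_congr (subgroupOfEquivOfLe inf_le_right).toEquiv, inf_subgroupOf_right, e,
    card_map_of_injective H15.YA.ci, c] at k
  rw [← k]
  exact Nat.mul_dvd_mul_left 7 (i2 ▸ relIndex_dvd_index_of_normal (Inn Spor.M22) C_[MulAut.conj x])

end H15.S7M
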