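import Cfsg.Agent.L.Jt0
import Cfsg.Agent.H20.KW

/-! The central involution is isolated in the centraliser of the element of order three (namespace H15.TW2): `fc`, `w2`. -/

set_option autoImplicit false

namespace H15.TW2
open Subgroup Cfsg BG H20.FtW Cfsg.Agent.H06.J Cfsg.Agent.H23.K

universe u

theorem fc {G : Type u} [Group G] [Finite G] {A X : Subgroup G} {g : G} (u : ∀ P : Subgroup G, IsPGroup 2 P → Un P) (e : EA A)
    (c : Nat.card A = 2048) (l : A ≤ X) (l' : cj g A ≤ X) : ∃ k ∈ X, k * g ∈ N_(A) := by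
  obtain ⟨S, s, a⟩ := sylow_superset Nat.prime_two e.pg l
  obtain ⟨k, kc, b⟩ := sylow_Jsub Nat.prime_two s (e.cj g).pg l'
  have r := (u S (s.pg Nat.prime_two)).2 _ b _ a ((e.cj g).cj k) e (by rw [BG.card_cj, BG.card_cj, c]) c
  rw [BG.cj_cj] at r
  exact ⟨k, kc, BG.cj_eq_self_iff.1 r⟩

theorem w2 : L.Jt.W2Stmt.{u} := by
  intro G _ _ z Q V _ _ _ Γ _ _ f π ν T d M β q s K Y B A δ cx c2 lc hn c cδ cz
  by_contra ne
  have mul := H20.JE.mul s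
  have inv := H20.JE.inv s
  have zz : z * z = 1 := by rw [← pow_two, ← lc.z2, pow_orderOf_eq_one]
  have z1 : z ≠ 1 := fun e => by have := lc.z2; simp [e] at this
  have zδ : z ∈ C_[δ] := mem_cent1_comm.1 cx.δz
  have zA : z ∈ A := (c2.e3.ge (show z ∈ s.md.pull B from ⟨s.md.lx.aes.mem, s.md.zz ▸ zero_mem _⟩)).1
  have wδ : c * z * c⁻¹ ∈ C_[δ] := mul_mem (mul_mem cδ zδ) (inv_mem cδ)
  have p1 : π 1 = 1 := (s.ker 1 (one_mem _)).2 (one_mem _)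
  obtain ⟨g, gM, gY⟩ := cx.hk.oc _ (lc.inM _ cz wδ) (by rw [← mul _ cz _ cz, sq_conj zz, p1])
  obtain ⟨c0, c0z, c0δ, rfl⟩ := lc.lift g gM
  obtain ⟨a, aA, aδ, ea⟩ := c2.YA _ gY
  have w'z : c0 * (c * z * c⁻¹) * c0⁻¹ ∈ C_[z] := mul_mem (mul_mem c0z cz) (inv_mem c0z)
  have w'A : c0 * (c * z * c⁻¹) * c0⁻¹ ∈ A := by
    have h1 := lc.qz _ ((s.ker _ (mul_mem (inv_mem (cx.Az aA)) w'z)).1 (by
      rw [mul _ (inv_mem (cx.Az aA)) _ w'z, inv _ (cx.Az aA), ea, mul _ (mul_mem c0z cz) _ (inv_mem c0z), mul _ c0z _ cz, inv _ c0z,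
        inv_mul_cancel])) (mul_mem (inv_mem aδ) (mul_mem (mul_mem c0δ wδ) (inv_mem c0δ)))
    rw [← mul_inv_cancel_left a (c0 * (c * z * c⁻¹) * c0⁻¹)]
    rcases h1 with h | h <;> rw [h]
    exacts [mul_mem aA (one_mem _), mul_mem aA zA]
  have e : EA A := cx.A2
  obtain ⟨k, kz, kN⟩ := fc (g := (c0 * c)⁻¹) cx.u e cx.cA cx.Az ((e.cj _).cent (mem_cj_inv.2 (by
    rwa [show c0 * c * z * (c0 * c)⁻¹ = c0 * (c * z * c⁻¹) * c0⁻¹ by group])))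
  have εz : k * δ * k⁻¹ ∈ C_[z] := mul_mem (mul_mem kz cx.δz) (inv_mem kz)
  have ε3 : (k * δ * k⁻¹) ^ 3 = 1 := by rw [conj_pow, cx.δ3]; simp
  have πε : π (k * δ * k⁻¹) = π k * d * (π k)⁻¹ := by rw [mul _ (mul_mem kz cx.δz) _ (inv_mem kz), mul _ kz _ cx.δz, inv _ kz, cx.δd]
  obtain ⟨r, rQ, er⟩ : ∃ r ∈ Q, r * (k * δ * k⁻¹) * r⁻¹ ∈ zpowers δ := by
    by_cases m : π k ∈ M
    · obtain ⟨r, a, b⟩ := H20.KW.cj3 s εz (by rw [πε, s.gm.Md _ m, mul_inv_cancel_right]) ε3 cx.δz cx.δd cx.δ3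
      exact ⟨r, a, by rw [b]; exact mem_zpowers _⟩
    · obtain ⟨r, a, b⟩ := H20.KW.cj3 s (mul_mem εz εz) (by
        rw [mul _ εz _ εz, πε, s.gm.nM _ m, mul_inv_cancel_right, mul_assoc, s.gm.d3, mul_one])
        (by rw [← pow_two, ← pow_mul, mul_comm, pow_mul, ε3, one_pow]) cx.δz cx.δd cx.δ3
      refine ⟨r, a, ?_⟩
      generalize k * δ * k⁻¹ = ε at *
      have : r * ε * r⁻¹ = δ * δ := by
        rw [← b, show r * (ε * ε) * r⁻¹ * (r * (ε * ε) * r⁻¹) = r * (ε ^ 3 * ε) * r⁻¹ by rw [pow_three]; group, ε3, one_mul]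
      exact this ▸ mul_mem (mem_zpowers _) (mem_zpowers _)
  have rz : r ∈ C_[z] := mem_cent1.2 (s.md.lx.aes.cent r rQ)
  have h := hn _ (mul_mem (lc.QN rQ) kN) (by
    rwa [show r * (k * (c0 * c)⁻¹) * δ * (r * (k * (c0 * c)⁻¹))⁻¹ = r * (k * ((c0 * c)⁻¹ * δ * (c0 * c)) * k⁻¹) * r⁻¹ by group,
      mem_cent1.1 (inv_mem (mul_mem c0δ cδ)), inv_mul_cancel_right])
  have h' : r * (k * (c0 * c)⁻¹) ∈ C_[z] := mem_cent1.2 (mul_inv_eq_iff_eq_mul.1 h)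
  have h2 : c ∈ C_[z] := by
    have := mul_mem (inv_mem c0z) (mul_mem (inv_mem h') (mul_mem rz kz))
    rwa [show c0⁻¹ * ((r * (k * (c0 * c)⁻¹))⁻¹ * (r * k)) = c by group] at this
  exact ne (mul_inv_eq_iff_eq_mul.2 (mem_cent1.1 h2))

end H15.TW2
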