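import Cfsg.Agent.L.Jt0
import Cfsg.Agent.S0215

/-! An isolated involution centralising the normal subgroups of odd order is central (namespace H15.TZ): `z`. -/

set_option autoImplicit false

namespace H15.TZ
open Subgroup Cfsg BG

universe u

theorem z : L.Jt.ZStmt.{u} := by
  intro G _ _ X z zX z2 iso odd x hx
  have k : ∀ g : X, (⟨z, zX⟩ : X) * g * (⟨z, zX⟩ : X)⁻¹ * g⁻¹ ∈ oddCore X :=
    Cfsg.Agent.S0215.zstar ⟨by rw [← z2, ← orderOf_coe], fun g h => Subtype.ext (iso g g.2 (mem_cent1.2 (by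
      first
        | exact congrArg Subtype.val h.eq
        | exact congrArg Subtype.val h.eq.symm)))⟩
  have l : (oddCore X).map X.subtype ≤ C_[z] := odd _ (map_subtype_le _)
    (by rw [card_map_of_injective X.subtype_injective]; exact H08.odd_card_oddCore X)
    (le_norm_iff.2 (by
      rintro a ha _ ⟨r, hr, rfl⟩
      exact ⟨_, (inferInstance : (oddCore X).Normal).conj_mem r hr ⟨a, ha⟩, rfl⟩))
  have m : z * x * z⁻¹ * x⁻¹ ∈ C_[z] := l (mem_map_of_mem X.subtype (k ⟨x, hx⟩))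
  have m' : x * z * x⁻¹ ∈ C_[z] := by
    have := inv_mem (mul_mem (inv_mem (mem_cent1_self z)) m)
    rwa [show (z⁻¹ * (z * x * z⁻¹ * x⁻¹))⁻¹ = x * z * x⁻¹ by group] at this
  exact mem_cent1.2 (mul_inv_eq_iff_eq_mul.1 (iso x hx m'))

end H15.TZ
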