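import Cfsg.Agent.L.Jt0

/-! The central involution lies in the derived subgroup of `C(z) ⊓ C(δ)` (namespace H15.TZ1): `z1`. -/

set_option autoImplicit false

namespace H15.TZ1
open Subgroup Cfsg BG H20.FtW

universe u

theorem z1 : L.Jt.Z1Stmt.{u} := by
  intro G _ _ A N B D z δ θ cf v _
  have e : EA A := cf.sq
  have zA := cf.BA cf.zB
  have zδ : z ∈ C_[δ] := mem_cent1_comm.1 v.δz
  have mX : ∀ {x}, x ∈ D → x ∈ C_[δ] → x ∈ C_[z] ⊓ C_[δ] := fun a b => ⟨e.cent zA (cf.DA _ a).1, b⟩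
  have nz : ∀ {x}, x ∈ D → x ≠ z := fun a h => cf.zD (h ▸ a)
  let a := Abelianization.of (G := ↥(C_[z] ⊓ C_[δ]))
  have cst : ∀ {s t} (hs : s ∈ D) (hs' : s ∈ C_[δ]) (ht : t ∈ D) (ht' : t ∈ C_[δ]), a ⟨s, mX hs hs'⟩ = a ⟨t, mX ht ht'⟩ := by
    intro s t hs hs' ht ht'
    obtain ⟨c, cN, cz, cδ, h | h⟩ := v.tr s ⟨(cf.DA _ hs).1, hs'⟩ (cf.DA _ hs).2 (nz hs) t ⟨(cf.DA _ ht).1, ht'⟩ (cf.DA _ ht).2 (nz ht)
    · rw [show (⟨t, mX ht ht'⟩ : ↥(C_[z] ⊓ C_[δ])) = ⟨c, cz, cδ⟩ * ⟨s, mX hs hs'⟩ * ⟨c, cz, cδ⟩⁻¹ from Subtype.ext h.symm,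
        map_mul, map_mul, map_inv, mul_inv_cancel_comm]
    · exact absurd (h ▸ cf.Dc c cN s hs) ((v.ex t ⟨(cf.DA _ ht).1, ht'⟩ (cf.DA _ ht).2 (nz ht)).1 ht)
  have sq : ∀ {s} (hs : s ∈ D) (hs' : s ∈ C_[δ]), a ⟨s, mX hs hs'⟩ * a ⟨s, mX hs hs'⟩ = 1 := fun hs hs' => by
    rw [← map_mul, ← map_one a]; congr 1; exact Subtype.ext (cf.sq _ (cf.DA _ hs).1)
  obtain ⟨s, hs, hs', t, ht, ht', n, n'⟩ := v.p1
  obtain ⟨s₂, ks, ks', t₂, kt, kt', k⟩ := v.p2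
  have sA := (cf.DA _ hs).1
  have u : s * t * z ∈ D := by
    by_contra h
    refine n' ((v.ex _ ⟨mul_mem sA (cf.DA _ ht).1, mul_mem hs' ht'⟩ (fun r => n ?_) fun r => ?_).2 h)
    · exact (mul_left_cancel ((cf.sq s sA).trans r.symm))
    · refine (v.ex s ⟨sA, hs'⟩ (cf.DA _ hs).2 (nz hs)).1 hs ?_
      rwa [← r, ← mul_assoc, cf.sq s sA, one_mul]
  have u' : s * t * z ∈ C_[δ] := mul_mem (mul_mem hs' ht') zδ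
  have h1 : a ⟨_, mX u u'⟩ = a ⟨z, mem_cent1_self z, zδ⟩ := by
    rw [show (⟨_, mX u u'⟩ : ↥(C_[z] ⊓ C_[δ])) = ⟨s, mX hs hs'⟩ * ⟨t, mX ht ht'⟩ * ⟨z, mem_cent1_self z, zδ⟩ from rfl,
      map_mul, map_mul, cst ht ht' hs hs', sq hs hs', one_mul]
  have h2 : a ⟨_, mX k (mul_mem ks' kt')⟩ = 1 := by
    rw [show (⟨_, mX k (mul_mem ks' kt')⟩ : ↥(C_[z] ⊓ C_[δ])) = ⟨s₂, mX ks ks'⟩ * ⟨t₂, mX kt kt'⟩ from rfl,
      map_mul, cst kt kt' ks ks', sq ks ks']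
  have h3 := h1.symm.trans ((cst u u' k (mul_mem ks' kt')).trans h2)
  rw [← MonoidHom.mem_ker, Abelianization.ker_of] at h3
  exact map_subtype_commutator (C_[z] ⊓ C_[δ]) ▸ ⟨_, h3, rfl⟩

end H15.TZ1
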