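import Cfsg.Agent.H05.Tu0

/-! `SO₃ = PSL₂` over an algebraically closed field (namespace H15.Tu): `lift`, `o`. -/

set_option autoImplicit false

namespace H15.Tu
open Matrix Module

universe u
variable {F : Type} [Field F] {i h : F}

/-- scalar plus Pauli part -/
def ψ (i t : F) (v : Fin 3 → F) : Matrix (Fin 2) (Fin 2) F := !![t + v 2, v 0 - i * v 1; v 0 + i * v 1, t - v 2]
/-- scalar part -/
def tt (h : F) (Y : Matrix (Fin 2) (Fin 2) F) : F := h * (Y 0 0 + Y 1 1)
/-- Pauli part -/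
def ww (i h : F) (Y : Matrix (Fin 2) (Fin 2) F) : Fin 3 → F := ![h * (Y 0 1 + Y 1 0), h * i * (Y 0 1 - Y 1 0), h * (Y 0 0 - Y 1 1)]

theorem dec (hi : i * i = -1) (hh : 2 * h = 1) (Y : Matrix (Fin 2) (Fin 2) F) : ψ i (tt h Y) (ww i h Y) = Y := by
  ext a b; fin_cases a <;> fin_cases b <;> simp [ψ, tt, ww] <;> grind

theorem t1 (hh : 2 * h = 1) (t : F) (v : Fin 3 → F) : tt h (ψ i t v) = t := by simp [ψ, tt]; grind

theorem w1 (hi : i * i = -1) (hh : 2 * h = 1) (t : F) (v : Fin 3 → F) : ww i h (ψ i t v) = v := by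
  ext a; fin_cases a <;> simp [ψ, ww] <;> grind

theorem pm (hi : i * i = -1) (t s : F) (v w : Fin 3 → F) :
    ψ i t v * ψ i s w = ψ i (t * s + v ⬝ᵥ w) (t • w + s • v + i • crossProduct v w) := by
  ext a b; fin_cases a <;> fin_cases b <;> simp [ψ, cross_apply, dotProduct, Fin.sum_univ_three] <;> grind

theorem cr (M : Matrix (Fin 3) (Fin 3) F) (v w : Fin 3 → F) : crossProduct (M *ᵥ v) (M *ᵥ w) = (adjugate M)ᵀ *ᵥ crossProduct v w := by
  ext a; fin_cases a <;> simp [cross_apply, adjugate_fin_three, mulVec, dotProduct, Fin.sum_univ_three] <;> ring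

/-- the map induced on matrices -/
def φ (i h : F) (M : Matrix (Fin 3) (Fin 3) F) : Matrix (Fin 2) (Fin 2) F →ₗ[F] Matrix (Fin 2) (Fin 2) F where
  toFun Y := ψ i (tt h Y) (M *ᵥ ww i h Y)
  map_add' X Y := by ext a b; fin_cases a <;> fin_cases b <;> simp [ψ, tt, ww, mulVec, dotProduct, Fin.sum_univ_three] <;> ring
  map_smul' c Y := by ext a b; fin_cases a <;> fin_cases b <;> simp [ψ, tt, ww, mulVec, dotProduct, Fin.sum_univ_three] <;> ring

theorem lift [IsAlgClosed F] (hi : i * i = -1) (hh : 2 * h = 1) {M : Matrix (Fin 3) (Fin 3) F} (o : Mᵀ * M = 1) (d : M.det = 1) :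
    ∃ s : SpecialLinearGroup (Fin 2) F, ∀ t v, ψ i t (M *ᵥ v) * s.1 = s.1 * ψ i t v := by
  have e : ∀ (M : Matrix (Fin 3) (Fin 3) F) t v, φ i h M (ψ i t v) = ψ i t (M *ᵥ v) := fun M t v => by
    show ψ i _ _ = _
    rw [t1 hh, w1 hi hh]
  have ad : (adjugate M)ᵀ = M := by
    rw [← one_mul (adjugate M), ← o, mul_assoc, mul_adjugate, d, one_smul, mul_one, transpose_transpose]
  have o1 : (1 : Matrix (Fin 2) (Fin 2) F) = ψ i 1 0 := by ext a b; fin_cases a <;> fin_cases b <;> simp [ψ]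
  let f : Matrix (Fin 2) (Fin 2) F ≃ₐ[F] Matrix (Fin 2) (Fin 2) F := AlgEquiv.ofBijective (AlgHom.ofLinearMap (φ i h M)
    (by rw [o1, e, mulVec_zero]) fun X Y => by
      rw [← dec hi hh X, ← dec hi hh Y, pm hi, e, e, e, pm hi, cr, ad, mulVec_add, mulVec_add, mulVec_smul, mulVec_smul, mulVec_smul,
        dotProduct_mulVec, vecMul_mulVec, o, vecMul_one])
    (Function.bijective_iff_has_inverse.2 ⟨φ i h Mᵀ, fun Y => by
      show φ i h Mᵀ (φ i h M Y) = Y
      rw [← dec hi hh Y, e, e, mulVec_mulVec, o, one_mulVec], fun Y => by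
      show φ i h M (φ i h Mᵀ Y) = Y
      rw [← dec hi hh Y, e, e, mulVec_mulVec, mul_eq_one_comm.1 o, one_mulVec]⟩)
  obtain ⟨T, hT⟩ := (toLinAlgEquiv'.symm.trans (f.trans toLinAlgEquiv')).eq_linearEquivConjAlgEquiv
  have k : ∀ Y, f Y * LinearMap.toMatrix' T.toLinearMap = LinearMap.toMatrix' T.toLinearMap * Y := fun Y => by
    have := congrArg (fun g => g (toLinAlgEquiv' Y)) hT
    simp only [AlgEquiv.trans_apply, AlgEquiv.symm_apply_apply, LinearEquiv.conjAlgEquiv_apply] at this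
    apply toLin'.injective
    rw [toLin'_mul, toLin'_mul, toLin'_toMatrix', show toLin' (f Y) = toLinAlgEquiv' (f Y) from rfl, this]
    ext1; simp [LinearMap.comp_assoc]; rfl
  have n : (LinearMap.toMatrix' T.toLinearMap).det ≠ 0 := by
    rw [LinearMap.det_toMatrix']; exact T.isUnit_det'.ne_zero
  obtain ⟨c, hc⟩ := IsAlgClosed.exists_eq_mul_self (LinearMap.toMatrix' T.toLinearMap).det⁻¹
  refine ⟨⟨c • LinearMap.toMatrix' T.toLinearMap, by rw [det_smul, Fintype.card_fin, pow_two, ← hc, inv_mul_cancel₀ n]⟩, fun t v => ?_⟩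
  rw [← e, Matrix.mul_smul, Matrix.smul_mul]
  exact congrArg _ (k _)

theorem o : H05.Tu.OStmt.{u} := by
  rintro G _ _ p _ x sy p5 ⟨A, _, _, _, τ, B, r3, sy', nd, inv, nx, cz⟩
  have h2 : (2 : H05.Tu.K p) ≠ 0 := fun e => by
    have := (CharP.cast_eq_zero_iff (H05.Tu.K p) p 2).1 (by exact_mod_cast e)
    have := Nat.le_of_dvd two_pos this
    omega
  have := invertibleOfNonzero h2
  obtain ⟨i, hi⟩ := IsAlgClosed.exists_eq_mul_self (-1 : H05.Tu.K p)
  have hh := mul_inv_cancel₀ h2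
  obtain ⟨v, hv⟩ := LinearMap.BilinForm.exists_orthogonal_basis (B := B) ⟨sy'⟩
  have n0 : ∀ j, B (v j) (v j) ≠ 0 := fun j e => v.ne_zero j (nd _ fun w => by
    rw [← v.sum_repr w, map_sum]
    refine Finset.sum_eq_zero fun k _ => ?_
    rw [map_smul]
    by_cases c : j = k
    · rw [← c, e, smul_zero]
    · rw [hv c, smul_zero])
  choose c hc using fun j => IsAlgClosed.exists_eq_mul_self (B (v j) (v j))⁻¹
  have c0 : ∀ j, c j ≠ 0 := fun j e => inv_ne_zero (n0 j) (by rw [hc, e, mul_zero])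
  let b : Basis (Fin 3) (H05.Tu.K p) A := (v.unitsSMul fun j => Units.mk0 (c j) (c0 j)).reindex (finCongr r3)
  have hb : LinearMap.BilinForm.toMatrix b B = 1 := by
    ext j k
    simp only [b, LinearMap.BilinForm.toMatrix_apply, Basis.reindex_apply, Basis.unitsSMul_apply, Units.smul_def, Units.val_mk0, map_smul,
      LinearMap.smul_apply, smul_eq_mul]
    by_cases e : j = k
    · rw [e, one_apply_eq, ← mul_assoc, ← hc, inv_mul_cancel₀ (n0 _)]
    · rw [hv fun q => e ((finCongr r3).symm.injective q), one_apply_ne e, mul_zero, mul_zero]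
  let N : G →* Matrix (Fin 3) (Fin 3) (H05.Tu.K p) := (LinearMap.toMatrixAlgEquiv b).toMonoidHom.comp τ
  have oN : ∀ g, (N g)ᵀ * N g = 1 := fun g => by
    have := LinearMap.BilinForm.toMatrix_comp b b B (τ g) (τ g)
    rw [show B.comp (τ g) (τ g) = B from LinearMap.ext₂ (inv g), hb, mul_one] at this
    exact this.symm
  have dN : ∀ g, (N g).det * (N g).det = 1 := fun g => by simpa using congrArg det (oN g)
  choose s hs using fun g => lift hi.symm hh (M := (N g).det • N g)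
    (by rw [transpose_smul, Matrix.smul_mul, Matrix.mul_smul, oN, smul_smul, dN, one_smul])
    (by rw [det_smul, Fintype.card_fin, pow_succ, pow_two, dN, one_mul, dN])
  have cen : ∀ a : SpecialLinearGroup (Fin 2) (H05.Tu.K p), (∀ t w, ψ i t w * a.1 = a.1 * ψ i t w) → a ∈ Subgroup.center _ :=
    fun a e => Subgroup.mem_center_iff.2 fun y => Subtype.ext (by
      show y.1 * a.1 = a.1 * y.1
      rw [← dec hi.symm hh y.1, e])
  refine ⟨MonoidHom.mk' (fun g => QuotientGroup.mk (s g)) fun g k => QuotientGroup.eq.2 (cen _ fun t w => ?_), fun e => nx ?_,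
    fun z hz => (QuotientGroup.eq_one_iff _).2 (cen _ fun t w => ?_)⟩
  · have := hs (g * k) t w
    rw [map_mul, det_mul, ← smul_mul_smul_comm, ← mulVec_mulVec] at this
    have q : ∀ a : SpecialLinearGroup (Fin 2) (H05.Tu.K p), a⁻¹.1 * a.1 = 1 ∧ a.1 * a⁻¹.1 = 1 := fun a =>
      ⟨congrArg Subtype.val (inv_mul_cancel a), congrArg Subtype.val (mul_inv_cancel a)⟩
    show ψ i t w * ((s (g * k))⁻¹.1 * ((s g).1 * (s k).1)) = (s (g * k))⁻¹.1 * ((s g).1 * (s k).1) * ψ i t w
    rw [mul_assoc, mul_assoc, ← hs k, ← mul_assoc (s g).1, ← hs g,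
      ← one_mul (ψ i t w * _), ← (q (s (g * k))).1, mul_assoc, ← mul_assoc (s (g * k)).1, ← this, mul_assoc, ← mul_assoc (s (g * k)).1,
      (q _).2, one_mul, mul_assoc]
  · obtain ⟨r, -, e⟩ := Matrix.SpecialLinearGroup.mem_center_iff.1 ((QuotientGroup.eq_one_iff (s x)).1 e)
    have d1 : (N x).det = 1 := by
      obtain ⟨k, hk⟩ := (Fact.out : p.Prime).odd_of_ne_two (by omega)
      have : (N x).det ^ (2 * k + 1) = 1 := by rw [← det_pow, ← map_pow, ← sy.o.trans hk, pow_orderOf_eq_one, map_one, det_one]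
      rwa [pow_succ, pow_mul, pow_two, dN, one_pow, one_mul] at this
    have : N x = 1 := toLin'.injective (LinearMap.ext fun w => by
      have := hs x 0 w
      rw [d1, one_smul] at this
      have c : (s x).1 * ψ i 0 w = ψ i 0 w * (s x).1 := by rw [← e]; exact (scalar_commute r (fun _ => Commute.all _ _) _).eq
      have := congrArg (ww i 2⁻¹) (((isUnit_iff_isUnit_det _).2 (by rw [(s x).2]; exact isUnit_one)).mul_right_cancel (this.trans c))
      rw [w1 hi.symm hh, w1 hi.symm hh] at this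
      rw [toLin'_apply, toLin'_apply, one_mulVec, this])
    exact (LinearMap.toMatrixAlgEquiv b).injective (this.trans (map_one _).symm)
  · have := hs z t w
    rwa [show N z = 1 by simp [N, cz z hz], det_one, one_smul, one_mulVec] at this

end H15.Tu
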