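import Mathlib

/-!
# Involutions with self-centralising normal 2-subgroups; the transvection centraliser in `SL(5,2)`

* `H15.exists_sylow_eq_map`: if a Sylow 2-subgroup `T` of `C(z)` has only `1, z` central, it is Sylow in `G`.
* `H15.mem_centralizer_transvection_iff`, `H15.card_centralizer_transvection` (= 21504),
  `H15.eq_one_or_of_commute_sylow` (an element of `C(s)` centralising a Sylow 2-subgroup is `1` or `s`).
-/

set_option autoImplicit false

namespace H15

open Matrix

/-- A Sylow 2-subgroup of `C(z)` whose only central elements are `1, z` is a Sylow 2-subgroup of `G`. -/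
theorem exists_sylow_eq_map {G : Type*} [Group G] [Finite G] (z : G) (hz : z ≠ 1)
    (T : Sylow 2 (Subgroup.centralizer ({z} : Set G)))
    (hzT : (⟨z, Subgroup.mem_centralizer_singleton_iff.mpr rfl⟩ : Subgroup.centralizer ({z} : Set G)) ∈ T)
    (hT : ∀ x ∈ T, (∀ y ∈ T, x * y = y * x) → (x : G) = 1 ∨ (x : G) = z) :
    ∃ S : Sylow 2 G, (S : Subgroup G) =
      (T : Subgroup (Subgroup.centralizer ({z} : Set G))).map (Subgroup.centralizer ({z} : Set G)).subtype := by
  have : Fact (Nat.Prime 2) := ⟨Nat.prime_two⟩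
  let C := Subgroup.centralizer ({z} : Set G)
  have hC : C = Subgroup.centralizer ({z} : Set G) := rfl
  let T' : Subgroup G := (T : Subgroup C).map C.subtype
  have hp : IsPGroup 2 T' := T.2.map _
  obtain ⟨S, hS⟩ := hp.exists_le_sylow
  refine ⟨S, ?_⟩
  -- normaliser of `T'` in `S` lies in `C`
  have hN : ∀ g ∈ Subgroup.normalizer (T' : Set G), g ∈ C := by
    intro g hg
    have hzT' : z ∈ T' := ⟨_, hzT, rfl⟩
    have h1 : g * z * g⁻¹ ∈ T' := (Subgroup.mem_normalizer_iff.mp hg z).mp hzT'
    obtain ⟨x, hx, hxe⟩ := h1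
    have hxe' : (x : G) = g * z * g⁻¹ := hxe
    have h2 : ∀ y ∈ T, x * y = y * x := by
      intro y hy
      have hy' : (y : G) ∈ T' := ⟨y, hy, rfl⟩
      have h3 : g⁻¹ * y * g ∈ T' := by
        have := (Subgroup.mem_normalizer_iff.mp hg (g⁻¹ * y * g)).mpr (by simpa [mul_assoc] using hy')
        exact this
      obtain ⟨w, _, hwe⟩ := h3
      have hwe' : (w : G) = g⁻¹ * y * g := hwe
      have h4 : (w : G) * z = z * w := Subgroup.mem_centralizer_singleton_iff.mp w.2
      apply Subtype.ext
      simp only [Subgroup.coe_mul]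
      rw [hxe']
      rw [hwe'] at h4
      calc g * z * g⁻¹ * y = g * (z * (g⁻¹ * y * g)) * g⁻¹ := by group
        _ = g * ((g⁻¹ * y * g) * z) * g⁻¹ := by rw [h4]
        _ = y * (g * z * g⁻¹) := by group
    rcases hT x hx h2 with h | h
    · exfalso
      rw [hxe'] at h
      apply hz
      calc z = g⁻¹ * (g * z * g⁻¹) * g := by group
        _ = 1 := by rw [h]; group
    · rw [hxe'] at h
      rw [hC, Subgroup.mem_centralizer_singleton_iff]
      calc g * z = (g * z * g⁻¹) * g := by group
        _ = z * g := by rw [h]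
  have hnc : NormalizerCondition S := by
    have : Group.IsNilpotent S := S.2.isNilpotent
    exact Group.normalizerCondition_of_isNilpotent
  by_contra hne
  have hlt : T'.subgroupOf S < ⊤ := by
    rw [lt_top_iff_ne_top]
    intro h
    rw [Subgroup.subgroupOf_eq_top] at h
    exact hne (le_antisymm h hS)
  have h5 := hnc _ hlt
  obtain ⟨g, hg, hg'⟩ := SetLike.exists_of_lt h5
  have hg2 : (g : G) ∈ Subgroup.normalizer (T' : Set G) := by
    have := Subgroup.subgroupOf_normalizer_eq hS
    rw [← this] at hg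
    exact hg
  have hgC := hN _ hg2
  -- the 2-subgroup `S ⊓ C` of `C` contains `T`
  have h6 : IsPGroup 2 ((S : Subgroup G).subgroupOf C) := S.2.comap_subtype
  have h7 : (T : Subgroup C) ≤ (S : Subgroup G).subgroupOf C := by
    intro x hx
    exact hS ⟨x, hx, rfl⟩
  have h8 := T.3 h6 h7
  apply hg'
  have h9 : (⟨g, hgC⟩ : C) ∈ (S : Subgroup G).subgroupOf C := g.2
  rw [h8] at h9
  exact ⟨_, h9, rfl⟩

abbrev SL52 := SpecialLinearGroup (Fin 5) (ZMod 2)
abbrev M52 := Matrix (Fin 5) (Fin 5) (ZMod 2)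

/-- the middle block -/
def mid (M : M52) : Matrix (Fin 3) (Fin 3) (ZMod 2) := Matrix.of fun i j => M i.succ.succ j.succ.succ

/-- The block form of the elements commuting with the transvection. -/
def blk (A : Matrix (Fin 3) (Fin 3) (ZMod 2)) (u v : Fin 3 → ZMod 2) (c : ZMod 2) :
    Matrix (Fin 5) (Fin 5) (ZMod 2) :=
  !![1, c, u 0, u 1, u 2;
     0, 1, 0, 0, 0;
     0, v 0, A 0 0, A 0 1, A 0 2;
     0, v 1, A 1 0, A 1 1, A 1 2;
     0, v 2, A 2 0, A 2 1, A 2 2]

theorem det_blk (A : Matrix (Fin 3) (Fin 3) (ZMod 2)) (u v : Fin 3 → ZMod 2) (c : ZMod 2) :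
    (blk A u v c).det = A.det := by
  rw [det_succ_column_zero, Fin.sum_univ_succ]
  have h1 : ∀ i : Fin 4, blk A u v c i.succ 0 = 0 := by
    intro i; fin_cases i <;> rfl
  simp only [h1, mul_zero, zero_mul, Finset.sum_const_zero, add_zero]
  rw [det_succ_row_zero, Fin.sum_univ_succ]
  have h2 : ∀ i : Fin 3, (blk A u v c).submatrix (0 : Fin 5).succAbove Fin.succ 0 i.succ = 0 := by
    intro i; fin_cases i <;> rfl
  simp only [h2, mul_zero, zero_mul, Finset.sum_const_zero, add_zero]
  have h3 : ((blk A u v c).submatrix (0 : Fin 5).succAbove Fin.succ).submatrix Fin.succ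
      (0 : Fin 4).succAbove = A := by
    ext i j; fin_cases i <;> fin_cases j <;> rfl
  rw [h3]
  have h4 : blk A u v c 0 0 = 1 := rfl
  have h5 : (blk A u v c).submatrix (0 : Fin 5).succAbove Fin.succ 0 0 = 1 := rfl
  rw [h4, h5]; simp

theorem comm_iff (M : Matrix (Fin 5) (Fin 5) (ZMod 2)) :
    M * transvection 0 1 1 = transvection 0 1 1 * M ↔
      (∀ i, i ≠ 0 → M i 0 = 0) ∧ (∀ j, j ≠ 1 → M 1 j = 0) ∧ M 0 0 = M 1 1 := by
  rw [transvection, mul_add, add_mul, mul_one, one_mul, add_right_inj]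
  constructor
  · intro h
    refine ⟨fun i hi => ?_, fun j hj => ?_, ?_⟩
    · have := congrFun (congrFun h i) 1
      simpa [mul_single_apply_same, single_mul_apply_of_ne, hi] using this
    · have := congrFun (congrFun h 0) j
      simpa [single_mul_apply_same, mul_single_apply_of_ne, hj, eq_comm] using this
    · have := congrFun (congrFun h 0) 1
      simpa using this
  · rintro ⟨h1, h2, h3⟩
    ext i j
    by_cases hi : i = 0 <;> by_cases hj : j = 1
    · subst hi hj; simp [h3]
    · subst hi; simp [hj, h2 j hj]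
    · subst hj; simp [hi, h1 i hi]
    · simp [hi, hj]

theorem eq_blk (M : Matrix (Fin 5) (Fin 5) (ZMod 2)) (hd : M.det = 1)
    (h : M * transvection 0 1 1 = transvection 0 1 1 * M) :
    M = blk (mid M) (fun j => M 0 j.succ.succ)
      (fun i => M i.succ.succ 1) (M 0 1) := by
  obtain ⟨h1, h2, h3⟩ := (comm_iff M).mp h
  have h0 : M 0 0 = 1 := by
    by_contra hne
    have h00 : M 0 0 = 0 := by
      generalize M 0 0 = x at hne; revert x; decide
    have : M.det = 0 := det_eq_zero_of_column_eq_zero 0 (fun i => by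
      by_cases hi : i = 0
      · rw [hi, h00]
      · exact h1 i hi)
    rw [this] at hd; exact absurd hd (by decide)
  have h11 : M 1 1 = 1 := h3 ▸ h0
  ext i j
  fin_cases i <;> fin_cases j <;>
    first | rfl | exact h0 | exact h11 | exact h1 _ (by decide) | exact h2 _ (by decide)

theorem blk_comm (A : Matrix (Fin 3) (Fin 3) (ZMod 2)) (u v : Fin 3 → ZMod 2) (c : ZMod 2) :
    blk A u v c * transvection 0 1 1 = transvection 0 1 1 * blk A u v c := by
  rw [comm_iff]
  refine ⟨fun i hi => ?_, fun j hj => ?_, rfl⟩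
  · fin_cases i <;> first | rfl | exact absurd rfl hi
  · fin_cases j <;> first | rfl | exact absurd rfl hj

theorem mem_centralizer_transvection_iff (s : SL52)
    (hs : (s : Matrix (Fin 5) (Fin 5) (ZMod 2)) = transvection 0 1 1) (g : SL52) :
    g ∈ Subgroup.centralizer ({s} : Set SL52) ↔
      (g : Matrix (Fin 5) (Fin 5) (ZMod 2)) * transvection 0 1 1 = transvection 0 1 1 * (g : M52) := by
  rw [Subgroup.mem_centralizer_singleton_iff, ← hs]; exact Subtype.ext_iff

theorem card_det_one : Nat.card {A : Matrix (Fin 3) (Fin 3) (ZMod 2) // A.det = 1} = 168 := by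
  have h := Matrix.card_GL_field (𝔽 := ZMod 2) 3
  have e : {A : Matrix (Fin 3) (Fin 3) (ZMod 2) // A.det = 1} ≃ GL (Fin 3) (ZMod 2) :=
    { toFun := fun A => GeneralLinearGroup.mkOfDetNeZero A.1 (by rw [A.2]; decide)
      invFun := fun g => ⟨g.1, by
        have := g.det_ne_zero
        generalize (g.1).det = x at this; revert x; decide⟩
      left_inv := fun A => rfl
      right_inv := fun g => by ext; rfl }
  rw [Nat.card_congr e, h]
  simp [Fin.prod_univ_succ]

theorem mid_blk (A : Matrix (Fin 3) (Fin 3) (ZMod 2)) (u v : Fin 3 → ZMod 2) (c : ZMod 2) :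
    mid (blk A u v c) = A := by
  ext i j; fin_cases i <;> fin_cases j <;> rfl

theorem eq_blk' (s : SL52) (hs : (s : M52) = transvection 0 1 1)
    (g : Subgroup.centralizer ({s} : Set SL52)) :
    ((g : SL52) : M52) = blk (mid ((g : SL52) : M52)) (fun j => ((g : SL52) : M52) 0 j.succ.succ)
      (fun i => ((g : SL52) : M52) i.succ.succ 1) (((g : SL52) : M52) 0 1) :=
  eq_blk _ (g : SL52).det_coe ((mem_centralizer_transvection_iff s hs g.1).mp g.2)

theorem card_centralizer_transvection (s : SL52)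
    (hs : (s : Matrix (Fin 5) (Fin 5) (ZMod 2)) = transvection 0 1 1) :
    Nat.card (Subgroup.centralizer ({s} : Set SL52)) = 21504 := by
  have e : Subgroup.centralizer ({s} : Set SL52) ≃
      {A : Matrix (Fin 3) (Fin 3) (ZMod 2) // A.det = 1} × (Fin 3 → ZMod 2) × (Fin 3 → ZMod 2) × ZMod 2 :=
    { toFun := fun g => (⟨mid ((g : SL52) : M52), by
          have h2 := (g : SL52).det_coe
          rw [eq_blk' s hs g, det_blk] at h2
          exact h2⟩, fun j => ((g : SL52) : M52) 0 j.succ.succ,
            fun i => ((g : SL52) : M52) i.succ.succ 1, ((g : SL52) : M52) 0 1)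
      invFun := fun x => ⟨⟨blk x.1.1 x.2.1 x.2.2.1 x.2.2.2, by rw [det_blk]; exact x.1.2⟩,
        (mem_centralizer_transvection_iff s hs _).mpr (blk_comm _ _ _ _)⟩
      left_inv := fun g => by
        apply Subtype.ext; apply Subtype.ext
        exact (eq_blk' s hs g).symm
      right_inv := fun x => by
        obtain ⟨⟨A, hA⟩, u, v, c⟩ := x
        refine Prod.ext (Subtype.ext ?_) (Prod.ext ?_ (Prod.ext ?_ rfl))
        · exact mid_blk _ _ _ _
        · ext i; fin_cases i <;> rfl
        · ext i; fin_cases i <;> rfl }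
  rw [Nat.card_congr e, Nat.card_prod, card_det_one]
  simp

set_option maxHeartbeats 2000000 in
theorem blk_mul (A B : Matrix (Fin 3) (Fin 3) (ZMod 2)) (u v u' v' : Fin 3 → ZMod 2) (c c' : ZMod 2) :
    blk A u v c * blk B u' v' c' =
      blk (A * B) (u' + vecMul u B) (v + mulVec A v') (c + c' + u ⬝ᵥ v') := by
  ext i j
  rw [mul_apply, Fin.sum_univ_five]
  fin_cases i <;> fin_cases j <;>
    simp [blk, mul_apply, Fin.sum_univ_three, vecMul, mulVec, dotProduct] <;> ring

/-- the middle block as a homomorphism on the centraliser -/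
def midHom (s : SL52) (hs : (s : Matrix (Fin 5) (Fin 5) (ZMod 2)) = transvection 0 1 1) :
    Subgroup.centralizer ({s} : Set SL52) →* Matrix (Fin 3) (Fin 3) (ZMod 2) where
  toFun g := mid ((g : SL52) : M52)
  map_one' := by ext i j; fin_cases i <;> fin_cases j <;> rfl
  map_mul' g h := by
    have : (((g * h : Subgroup.centralizer ({s} : Set SL52)) : SL52) : M52) =
      ((g : SL52) : M52) * ((h : SL52) : M52) := rfl
    rw [this]
    conv_lhs => rw [eq_blk' s hs g, eq_blk' s hs h, blk_mul, mid_blk]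

theorem blk_one : blk 1 0 0 0 = 1 := by
  ext i j; fin_cases i <;> fin_cases j <;> rfl

theorem zmod2_cases : ∀ c : ZMod 2, c = 0 ∨ c = 1 := by decide

theorem blk_tv : blk 1 0 0 1 = transvection 0 1 1 := by decide

theorem blk_pow4 (u v : Fin 3 → ZMod 2) (c : ZMod 2) : blk 1 u v c ^ 4 = 1 := by
  have h2 : ∀ w : Fin 3 → ZMod 2, w + w = 0 := fun w => by
    ext i; exact CharTwo.add_self_eq_zero _
  have : blk 1 u v c ^ 4 = (blk 1 u v c * blk 1 u v c) * (blk 1 u v c * blk 1 u v c) := by
    simp only [pow_succ, pow_zero, one_mul, mul_assoc]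
  rw [this, blk_mul]
  simp only [mul_one, vecMul_one, one_mulVec, h2]
  rw [blk_mul]
  simp [CharTwo.add_self_eq_zero, blk_one]

theorem eq_one_or_of_commute_sylow (s : SL52)
    (hs : (s : Matrix (Fin 5) (Fin 5) (ZMod 2)) = transvection 0 1 1)
    (T : Sylow 2 (Subgroup.centralizer ({s} : Set SL52))) (x : Subgroup.centralizer ({s} : Set SL52))
    (hx : ∀ y ∈ T, x * y = y * x) : (x : SL52) = 1 ∨ (x : SL52) = s := by
  have : Fact (Nat.Prime 2) := ⟨Nat.prime_two⟩
  let φ := (midHom s hs).toHomUnits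
  have hQ : IsPGroup 2 φ.ker := by
    intro g
    refine ⟨2, ?_⟩
    apply Subtype.ext; apply Subtype.ext; apply Subtype.ext
    have hg := eq_blk' s hs g.1
    have h1 : midHom s hs g.1 = 1 := congrArg Units.val g.2
    have h2 : mid ((g.1 : SL52) : M52) = 1 := h1
    rw [h2] at hg
    have h3 : ((((g ^ 2 ^ 2 : φ.ker) : Subgroup.centralizer ({s} : Set SL52)) : SL52) : M52) =
        ((g.1 : SL52) : M52) ^ 4 := by
      simp
    show ((((g ^ 2 ^ 2 : φ.ker) : Subgroup.centralizer ({s} : Set SL52)) : SL52) : M52) = 1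
    rw [h3, hg, blk_pow4]
  have hle : φ.ker ≤ T := hQ.le_sylow_of_normal T
  have hc : ∀ (u v : Fin 3 → ZMod 2),
      ((x : SL52) : M52) * blk 1 u v 0 = blk 1 u v 0 * ((x : SL52) : M52) := by
    intro u v
    let y : Subgroup.centralizer ({s} : Set SL52) := ⟨⟨blk 1 u v 0, by rw [det_blk, det_one]⟩,
      (mem_centralizer_transvection_iff s hs _).mpr (blk_comm _ _ _ _)⟩
    have hy : y ∈ φ.ker := by
      apply Units.ext
      show midHom s hs y = 1
      exact mid_blk _ _ _ _
    exact congrArg (fun t : Subgroup.centralizer ({s} : Set SL52) => ((t : SL52) : M52)) (hx y (hle hy))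
  obtain ⟨A, u, v, c, hxe⟩ : ∃ A u v c, ((x : SL52) : M52) = blk A u v c := ⟨_, _, _, _, eq_blk' s hs x⟩
  have hinj : ∀ {A B : Matrix (Fin 3) (Fin 3) (ZMod 2)} {u v u' v' : Fin 3 → ZMod 2} {c c' : ZMod 2},
      blk A u v c = blk B u' v' c' → u = u' ∧ v = v' ∧ c = c' := by
    intro A B u v u' v' c c' h
    refine ⟨?_, ?_, congrFun (congrFun h 0) 1⟩
    · ext i; fin_cases i
      exacts [congrFun (congrFun h 0) 2, congrFun (congrFun h 0) 3, congrFun (congrFun h 0) 4]
    · ext i; fin_cases i
      exacts [congrFun (congrFun h 2) 1, congrFun (congrFun h 3) 1, congrFun (congrFun h 4) 1]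
  have h1 : ∀ u' v', (u' + vecMul u 1 = u + vecMul u' A) ∧ (v + mulVec A v' = v' + mulVec 1 v) ∧
      (c + 0 + u ⬝ᵥ v' = 0 + c + u' ⬝ᵥ v) := by
    intro u' v'
    have := hc u' v'
    rw [hxe, blk_mul, blk_mul] at this
    exact hinj this
  have hA : A = 1 := by
    ext i j
    have := congrFun (h1 0 (Pi.single j 1)).2.1 i
    simp only [Pi.add_apply, one_mulVec, add_comm (v i), add_left_inj] at this
    rw [one_apply, ← Pi.single_apply j (1 : ZMod 2) i]
    simpa using this
  have hu : u = 0 := by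
    ext j
    simpa using (h1 0 (Pi.single j 1)).2.2
  have hv : v = 0 := by
    ext j
    simpa [eq_comm] using (h1 (Pi.single j 1) 0).2.2
  subst hA hu hv
  rcases zmod2_cases c with h | h
  · left; apply Subtype.ext
    show ((x : SL52) : M52) = 1
    rw [hxe, h, blk_one]
  · right; apply Subtype.ext
    show ((x : SL52) : M52) = (s : M52)
    rw [hxe, h, hs, blk_tv]

end H15
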