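import Cfsg.Agent.H23.Y0
import Cfsg.Agent.H20.JE
import Cfsg.Agent.H28.YC

/-! Involutions over the hexad subgroup in groups of Janko-four type (namespace H15.YPa): `pa`. -/

set_option autoImplicit false

namespace H15.YPa
open Subgroup Cfsg BG H20.FtW Cfsg.Agent.H06.J Cfsg.Agent.H23.K

universe u

theorem pa : Cfsg.Agent.H23.Y.PaStmt.{u} := by
  intro G _ _ z Q V _ _ _ Γ _ _ f π ν T d M β q s K Y B A δ cx c2 c256 t tz t2 tY tQ tA
  have mul := H20.JE.mul s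
  have inv := H20.JE.inv s
  have m := s.md
  have ea : EA A := cx.A2
  have BA : ∀ {w}, w ∈ s.md.pull B → w ∈ A := fun h => (c2.e3.ge h).1
  have Qz : ∀ {r}, r ∈ Q → r ∈ C_[z] := fun h => mem_cent1.2 (m.lx.aes.cent _ h)
  have nQ : ∀ {g r}, g ∈ C_[z] → r ∈ Q → g * r * g⁻¹ ∈ Q := fun a b => conj_mem_of_norm (m.lx.norm a) b
  have QN : ∀ {r}, r ∈ Q → r ∈ N_(A) := fun h => (c2.mN _ (Qz h)).2 fun v b => by rwa [(s.ker _ (Qz h)).2 h, s.gm.one]
  have y1 : π t ≠ 1 := fun h => tQ ((s.ker t tz).1 h)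
  have yy := cx.hk.hx.Y2 _ tY
  obtain ⟨c, cA, cδ, ec⟩ := c2.YA _ tY
  have cz := cx.Az cA
  have cc := cx.A2 c cA
  have ci : c⁻¹ = c := inv_eq_of_mul_eq_one_right cc
  have ti : t⁻¹ = t := inv_eq_of_mul_eq_one_right t2
  obtain ⟨e, eQ, rfl⟩ : ∃ e ∈ Q, t = e * c :=
    ⟨t * c, (s.ker _ (mul_mem tz cz)).1 (by rw [mul _ tz _ cz, ec, yy]), by rw [mul_assoc, cc, mul_one]⟩
  rw [← ec] at tY y1 yy
  have eB : ν e ∉ B := fun h => tA (mul_mem (BA ⟨eQ, h⟩) cA)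
  have fe : T (π c) (ν e) = ν e := by
    rw [s.act c cz e eQ, show c * e * c⁻¹ = e⁻¹ from eq_inv_of_mul_eq_one_right (by rw [ci, ← t2]; group), m.inv eQ]
  have ce : c * e = e * c := mul_inv_eq_iff_eq_mul.1 (c2.cz c cz cδ e eQ fe)
  have cw : ∀ w ∈ s.md.pull B, w ∈ C_[e * c] ↔ β (ν e) (ν w) = 0 := fun w h => by
    rw [s.b e eQ w h.1, mem_cent1, mul_assoc, ea.comm cA (BA h), ← mul_assoc, ← mul_assoc, mul_left_inj]
    exact ⟨fun r => r.symm, fun r => r.eq.symm⟩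
  have iso : ∀ u ∈ B, ∀ v ∈ B, β u v = 0 := fun u a v b => by
    have := s.gm.pol u v
    rw [cx.pj.qB _ (add_mem a b), cx.pj.qB _ a, cx.pj.qB _ b] at this; simpa using this.symm
  obtain ⟨u0, u0B, n0⟩ : ∃ u ∈ B, β (ν e) u ≠ 0 := by
    by_contra! h
    exact eB (s.gm.toQF.perp iso (by rw [cx.pj.cB]; norm_num) h)
  have z2 : ∀ x y : ZMod 2, x ≠ 0 → Xor (y + x = 0) (y = 0) := by unfold Xor; decide
  have c32 : Nat.card ↥(B ⊓ (β (ν e)).ker) = 32 := by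
    have i2 : ((β (ν e)).ker.addSubgroupOf B).index = 2 := AddSubgroup.index_eq_two_iff.2 ⟨⟨u0, u0B⟩, fun b => by
      simpa [AddSubgroup.mem_addSubgroupOf] using z2 _ (β (ν e) b) n0⟩
    have := ((β (ν e)).ker.addSubgroupOf B).card_mul_index
    rw [i2, cx.pj.cB, ← AddSubgroup.inf_addSubgroupOf_left, Nat.card_congr (AddSubgroup.addSubgroupOfEquivOfLe inf_le_left).toEquiv] at this
    omega
  have p0 : s.md.pull B ⊓ C_[e * c] = s.md.pull (B ⊓ (β (ν e)).ker) := Subgroup.ext fun w =>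
    ⟨fun h => ⟨h.1.1, h.1.2, (cw w h.1).1 h.2⟩, fun h => ⟨⟨h.1, h.2.1⟩, (cw w ⟨h.1, h.2.1⟩).2 h.2.2⟩⟩
  have c64 : Nat.card ↥(s.md.pull B ⊓ C_[e * c]) = 64 := by rw [p0, s.md.card_pull, c32]
  have ct : c ∈ C_[e * c] := mem_cent1.2 (by rw [← mul_assoc, ce])
  have cB : c ∉ s.md.pull B := fun h => y1 ((s.ker c cz).2 h.1)
  have k4 : ∀ a ∈ A ⊓ C_[e * c], a ∉ s.md.pull B → c * a ∈ Q := fun a h n => by
    have az := cx.Az h.1
    have : a * e * a⁻¹ = e := by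
      have := mem_cent1.1 h.2
      rw [mul_assoc, ea.comm cA h.1, ← mul_assoc, ← mul_assoc, mul_left_inj] at this
      rw [this, mul_inv_cancel_right]
    by_cases r : π a = π c
    · exact (s.ker _ (mul_mem cz az)).1 (by rw [mul _ cz _ az, r, yy])
    · exact absurd (cx.pi.two _ (cx.AY a h.1) _ tY (fun i => n (c2.e3.le ⟨h.1, (s.ker a az).1 i⟩)) y1 r _
        (by rw [s.act a az e eQ, this]) fe) eB
  let L : V →+ V := AddMonoidHom.id V + T (π c)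
  have c16 : Nat.card L.range = 16 := by
    have h1 := L.ker.card_mul_index
    have h2 : Nat.card L.ker = 256 := by
      rw [← c256 _ tY y1, ← Nat.card_coe_set_eq]
      congr 2
      ext v
      exact ⟨fun h => (eq_neg_of_add_eq_zero_right h).trans (neg_eq_of_add_eq_zero_left (m.two v)), fun h => by
        show v + T (π c) v = 0
        rw [show T (π c) v = v from h, m.two]⟩
    rw [h2, AddSubgroup.index_ker, s.gm.card] at h1; omega
  have orth : ∀ v, T (π c) v = v → ∀ x, β v (x + T (π c) x) = 0 := fun v h x => by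
    have := s.gm.toQF.inv (s.gm.qT (π c)) v x
    rw [h] at this
    rw [map_add, this, CharTwo.add_self_eq_zero]
  have LB : L.range ≤ B ⊓ (β (ν e)).ker := by
    rintro _ ⟨x, rfl⟩; exact ⟨cx.pj.cm _ tY x, orth _ fe x⟩
  have cm : ∀ g ∈ C_[z], g * g = 1 → π g = π c → ∀ r ∈ Q, g * (r * g * r⁻¹) ∈ Q ∧ ν (g * (r * g * r⁻¹)) = L (ν r) := fun g gz gg eg r b => by
    rw [show g * (r * g * r⁻¹) = g * r * g⁻¹ * r⁻¹ by rw [inv_eq_of_mul_eq_one_right gg]; group]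
    exact ⟨mul_mem (nQ gz b) (inv_mem b), by
      rw [m.mul _ (nQ gz b) _ (inv_mem b), m.inv b, ← s.act g gz r b, eg, add_comm]; rfl⟩
  have sb : ∀ w ∈ Q, ν w ∈ L.range → ∃ r ∈ N_(A), r * (e * c) * r⁻¹ = e * c * w := by
    rintro w wQ ⟨v, h⟩
    obtain ⟨r, b, rfl⟩ := m.sur v
    obtain ⟨h1, h2⟩ := cm _ tz t2 ec.symm r b
    have h3 : r * (e * c) * r⁻¹ = e * c * (e * c * (r * (e * c) * r⁻¹)) := by rw [← mul_assoc (e * c) (e * c), t2, one_mul]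
    rcases m.eq wQ h1 (h.symm.trans h2.symm) with i | i
    · exact ⟨r, QN b, by rw [i, ← h3]⟩
    · obtain ⟨r0, b0, rfl⟩ := m.sur u0
      have h4 : r0 * e * r0⁻¹ = z * e := (m.eq (nQ (Qz b0) eQ) eQ (m.cq b0 eQ)).resolve_left fun j =>
        n0 ((s.b e eQ r0 b0).2 (mul_inv_eq_iff_eq_mul.1 j).symm)
      have wA : e * c * (r * (e * c) * r⁻¹) ∈ A := BA ⟨h1, (LB ⟨_, h2.symm⟩).1⟩
      refine ⟨r0 * r, QN (mul_mem b0 b), ?_⟩
      rw [show r0 * r * (e * c) * (r0 * r)⁻¹ = r0 * (r * (e * c) * r⁻¹) * r0⁻¹ by group, h3, i]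
      generalize e * c * (r * (e * c) * r⁻¹) = w1 at wA
      calc _ = r0 * e * r0⁻¹ * (r0 * (c * w1)) * r0⁻¹ := by group
        _ = _ := by rw [h4, ea.comm (BA ⟨b0, u0B⟩) (mul_mem cA wA), ← mem_cent1.1 (Qz eQ), mul_assoc, mul_inv_cancel_right, mul_assoc e, ← mul_assoc z,
          ← mem_cent1.1 cz]; group
  refine ⟨?_, c64, fun w h => ?_, fun a h n => by rw [mul_assoc]; exact mul_mem eQ (k4 a h n), c, cA, cδ, cB, fun c' h => ?_⟩
  · have i2 : ((s.md.pull B).subgroupOf (A ⊓ C_[e * c])).index = 2 := index_eq_two_iff.2 ⟨⟨c, cA, ct⟩, fun b => by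
      by_cases h : b.1 ∈ s.md.pull B
      · exact .inr ⟨h, fun i => cB (by simpa using mul_mem (inv_mem h) (show b.1 * c ∈ s.md.pull B from i))⟩
      · exact .inl ⟨c2.e3.le ⟨mul_mem b.2.1 cA, show b.1 * c ∈ Q from ea.comm cA b.2.1 ▸ k4 _ b.2 h⟩, h⟩⟩
    have := ((s.md.pull B).subgroupOf (A ⊓ C_[e * c])).card_mul_index
    rw [i2, ← inf_subgroupOf_right, Nat.card_congr (subgroupOfEquivOfLe inf_le_right).toEquiv, ← inf_assoc,
      (inf_eq_left.2 fun _ => BA : s.md.pull B ⊓ A = _), c64] at this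
    omega
  · by_cases hw : ν w ∈ L.range
    · exact sb w h.1.1 hw
    obtain ⟨y2, b, n⟩ := H28.YC.cx s.gm cx.hk.hx cx.hk.KM cx.pj cx.pi c256 tY y1 fe eB
    obtain ⟨a, aA, -, rfl⟩ := c2.YA _ b
    have az := cx.Az aA
    have uB := cx.pj.cm _ b (ν e)
    have u0 : β (ν e) (ν e + T (π a) (ν e)) = 0 := by
      have := s.gm.pol (ν e) (ν e + T (π a) (ν e))
      rw [← add_assoc, m.two, zero_add, s.gm.qT, cx.pj.qB _ uB, add_zero] at this
      simpa using this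
    have un : ν e + T (π a) (ν e) ∉ L.range := n
    have i2 : (L.range.addSubgroupOf (B ⊓ (β (ν e)).ker)).index = 2 := by
      have := (L.range.addSubgroupOf (B ⊓ (β (ν e)).ker)).card_mul_index
      rw [c32, Nat.card_congr (AddSubgroup.addSubgroupOfEquivOfLe LB).toEquiv, c16] at this; omega
    have hs : ν w + (ν e + T (π a) (ν e)) ∈ L.range :=
      (AddSubgroup.add_mem_iff_of_index_two i2 (a := ⟨ν w, (p0.le h).2⟩) (b := ⟨_, uB, u0⟩)).2 (iff_of_false hw un)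
    have w2Q : e⁻¹ * (a * e * a⁻¹) ∈ Q := mul_mem (inv_mem eQ) (nQ az eQ)
    have νw : ν (e⁻¹ * (a * e * a⁻¹)) = ν e + T (π a) (ν e) := by rw [m.mul _ (inv_mem eQ) _ (nQ az eQ), m.inv eQ, s.act a az e eQ]
    have w2A : e⁻¹ * (a * e * a⁻¹) ∈ A := BA ⟨w2Q, νw ▸ uB⟩
    obtain ⟨r, rN, i⟩ := sb _ (mul_mem w2Q h.1.1) (by rwa [m.mul _ w2Q _ h.1.1, νw, add_comm])
    refine ⟨a * r, mul_mem (le_normalizer aA) rN, ?_⟩
    have h5 : a * e * a⁻¹ = e * (e⁻¹ * (a * e * a⁻¹)) := by group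
    rw [show a * r * (e * c) * (a * r)⁻¹ = a * (r * (e * c) * r⁻¹) * a⁻¹ by group, i]
    generalize e⁻¹ * (a * e * a⁻¹) = w2 at w2A h5
    calc _ = a * e * a⁻¹ * (a * (c * (w2 * w))) * a⁻¹ := by group
      _ = e * (w2 * c) * w2 * w := by rw [h5, ea.comm aA (mul_mem cA (mul_mem w2A (BA h.1)))]; group
      _ = _ := by rw [ea.comm w2A cA, mul_assoc e, mul_assoc c, cx.A2 _ w2A, mul_one]
  · have zB : z ∈ s.md.pull B := ⟨m.lx.aes.mem, m.zz ▸ zero_mem _⟩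
    have k : c' ∈ A ∧ c' ∈ C_[e * c] ∧ π c' = π c := by
      rcases h with rfl | rfl
      · exact ⟨cA, ct, rfl⟩
      · exact ⟨mul_mem cA (BA zB), mul_mem ct (mem_cent1_comm.1 tz), by
          rw [mul _ cz _ (mem_cent1_self z), (s.ker z (mem_cent1_self z)).2 zB.1, mul_one]⟩
    rw [← c16, show Nat.card L.range = (L.range : Set V).ncard from Nat.card_coe_set_eq _]
    refine (Set.ncard_le_ncard ?_).trans (Set.ncard_image_le (f := fun x => ν (c' * x)))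
    rintro _ ⟨v, rfl⟩
    obtain ⟨r, b, rfl⟩ := m.sur v
    obtain ⟨h1, h2⟩ := cm c' (cx.Az k.1) (cx.A2 _ k.1) k.2.2 r b
    refine ⟨_, ⟨?_, r, b, rfl⟩, h2⟩
    have := mul_mem (inv_mem k.2.1) (p0.ge (show _ ∈ s.md.pull _ from ⟨h1, LB ⟨_, h2.symm⟩⟩)).2
    rw [inv_mul_cancel_left] at this
    exact (mem_cent1.1 this).symm

end H15.YPa
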